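import Mathlib
import Cfsg.Agent.Lib.Helper99.CHO.Defs

/-!
# Project CHO (S1082 / S1083): integer table facts for type B2 (helper66)

The integer matrices `NZ r`, `MZ r` behind `NB2 K r`, `MB2 K r`, the weights of the diagonal
torus, and the group law `E_r(x) E_r(y) = E_r(x + y)`.
-/

set_option autoImplicit false
open scoped MatrixGroups
open Matrix

namespace Cfsg.Agent.Lib.Helper66.CHO

open Cfsg.Agent.Lib.Helper99.CHO

universe u

/-- the index type of the natural module of type B2 -/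
abbrev I5 : Type := Unit ⊕ (Fin 2 ⊕ Fin 2)

/-- integer root vectors -/
def NZ (r : ℕ) : Matrix I5 I5 ℤ := Matrix.of fun i j => tab3 nListB2 r (ix5 i) (ix5 j)

/-- integer squares -/
def MZ (r : ℕ) : Matrix I5 I5 ℤ := Matrix.of fun i j => tab3 mListB2 r (ix5 i) (ix5 j)

theorem NB2_eq_map (K : Type u) [Field K] (r : ℕ) :
    NB2 K r = (NZ r).map (Int.castRingHom K) := rfl

theorem MB2_eq_map (K : Type u) [Field K] (r : ℕ) :
    MB2 K r = (MZ r).map (Int.castRingHom K) := rfl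

theorem NB2_entry (K : Type u) [Field K] (r : ℕ) (i j : I5) :
    NB2 K r i j = ((tab3 nListB2 r (ix5 i) (ix5 j) : ℤ) : K) := rfl

theorem MB2_entry (K : Type u) [Field K] (r : ℕ) (i j : I5) :
    MB2 K r i j = ((tab3 mListB2 r (ix5 i) (ix5 j) : ℤ) : K) := rfl

/-- the integer facts `N² = 2M`, `NM = MN = 0`, `M² = 0` -/
theorem int_facts : ∀ r : Fin 8, NZ r * NZ r = (2 : ℤ) • MZ r ∧ NZ r * MZ r = 0 ∧
    MZ r * NZ r = 0 ∧ MZ r * MZ r = 0 := by
  decide +kernel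

/-- weight of the first torus coordinate -/
def w1 : I5 → ℤ
  | Sum.inl _ => 0
  | Sum.inr (Sum.inl i) => if i = 0 then 1 else 0
  | Sum.inr (Sum.inr i) => if i = 0 then -1 else 0

/-- weight of the second torus coordinate -/
def w2 : I5 → ℤ
  | Sum.inl _ => 0
  | Sum.inr (Sum.inl i) => if i = 0 then 0 else 1
  | Sum.inr (Sum.inr i) => if i = 0 then 0 else -1

/-- weight of the anisotropic coordinate -/
def w0 : I5 → ℤ
  | Sum.inl _ => 1
  | Sum.inr _ => 0

/-- `ε_1`-coordinate of the root `r` -/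
def c1 (r : ℕ) : ℤ := [-1, -1, 0, -1, 1, 0, 1, 1].getD r 0

/-- `ε_2`-coordinate of the root `r` -/
def c2 (r : ℕ) : ℤ := [-1, 0, -1, 1, -1, 1, 0, 1].getD r 0

/-- the root `r` is short -/
def c0 (r : ℕ) : ℤ := [0, 1, 1, 0, 0, 1, 1, 0].getD r 0

/-- the weight facts for `N_r` -/
theorem wt_N : ∀ r : Fin 8, ∀ i j : I5, tab3 nListB2 r (ix5 i) (ix5 j) ≠ 0 →
    (w0 i - w0 j = c0 r ∨ w0 i - w0 j = - c0 r) ∧ w1 i - w1 j = c1 r ∧ w2 i - w2 j = c2 r := by
  decide +kernel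

/-- the weight facts for `M_r` -/
theorem wt_M : ∀ r : Fin 8, ∀ i j : I5, tab3 mListB2 r (ix5 i) (ix5 j) ≠ 0 →
    w0 i - w0 j = 0 ∧ w1 i - w1 j = 2 * c1 r ∧ w2 i - w2 j = 2 * c2 r := by
  decide +kernel

/-- `c0` is `0` or `1` -/
theorem c0_cases : ∀ r : Fin 8, c0 r = 0 ∨ c0 r = 1 := by
  decide +kernel

/-- for each root one of the two torus coordinates has weight `±1` -/
theorem c_cases : ∀ r : Fin 8, (c1 r = 1 ∨ c1 r = -1) ∨ (c2 r = 1 ∨ c2 r = -1) := by
  decide +kernel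

section field
variable (K : Type u) [Field K]

theorem NB2_sq (r : ℕ) (hr : r < 8) : NB2 K r * NB2 K r = (2 : K) • MB2 K r := by
  have h := (int_facts ⟨r, hr⟩).1
  rw [NB2_eq_map, MB2_eq_map, ← Matrix.map_mul, h]
  ext i j
  rw [Matrix.map_apply, Matrix.smul_apply, Matrix.smul_apply, Matrix.map_apply]
  simp

theorem NB2_mul_MB2 (r : ℕ) (hr : r < 8) : NB2 K r * MB2 K r = 0 := by
  have h := (int_facts ⟨r, hr⟩).2.1
  rw [NB2_eq_map, MB2_eq_map, ← Matrix.map_mul, h]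
  ext i j
  simp

theorem MB2_mul_NB2 (r : ℕ) (hr : r < 8) : MB2 K r * NB2 K r = 0 := by
  have h := (int_facts ⟨r, hr⟩).2.2.1
  rw [NB2_eq_map, MB2_eq_map, ← Matrix.map_mul, h]
  ext i j
  simp

theorem MB2_sq (r : ℕ) (hr : r < 8) : MB2 K r * MB2 K r = 0 := by
  have h := (int_facts ⟨r, hr⟩).2.2.2
  rw [MB2_eq_map, ← Matrix.map_mul, h]
  ext i j
  simp

/-- the group law of a root group -/
theorem EB2mat_add (r : ℕ) (hr : r < 8) (x y : K) :
    EB2mat K r x * EB2mat K r y = EB2mat K r (x + y) := by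
  unfold EB2mat
  simp only [add_mul, mul_add, one_mul, mul_one, smul_mul_assoc, mul_smul_comm, NB2_sq K r hr,
    NB2_mul_MB2 K r hr, MB2_mul_NB2 K r hr, MB2_sq K r hr, smul_zero, add_zero]
  ext i j
  simp only [Matrix.add_apply, Matrix.smul_apply, smul_eq_mul]
  ring

theorem EB2mat_zero (r : ℕ) : EB2mat K r 0 = 1 := by
  unfold EB2mat
  simp

end field

end Cfsg.Agent.Lib.Helper66.CHO
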