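import Mathlib
import Cfsg.Agent.Lib.Helper99.CHO.Defs
import Cfsg.Agent.Lib.Helper66.CHO.TabB2

/-!
# Project CHO (S1082 / S1083): package [IN-B2] (helper66)

Conjugation of the root elements of type B2 by the diagonal torus, and: every root element is a
commutator of a diagonal isometry and a root element, when the field has an element `≠ 0, 1`.
-/

set_option autoImplicit false
open scoped MatrixGroups
open scoped commutatorElement
open Matrix

namespace Cfsg.Agent.Lib.Helper66.CHO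

open Cfsg.Agent.Lib.Helper99.CHO

universe u

section field
variable {K : Type u} [Field K]

/-- the diagonal torus element -/
def tor (d0 a1 a2 : K) : I5 → K := fun i => d0 ^ (w0 i) * a1 ^ (w1 i) * a2 ^ (w2 i)

/-- the character of the root `r` -/
def chi (r : ℕ) (d0 a1 a2 : K) : K := d0 ^ (c0 r) * a1 ^ (c1 r) * a2 ^ (c2 r)

theorem tor_N (d0 a1 a2 : K) (hd : d0 * d0 = 1) (h1 : a1 ≠ 0) (h2 : a2 ≠ 0) (r : ℕ) (hr : r < 8)
    (i j : I5) :
    tor d0 a1 a2 i * NB2 K r i j = chi r d0 a1 a2 * NB2 K r i j * tor d0 a1 a2 j := by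
  rw [NB2_entry]
  by_cases h : tab3 nListB2 r (ix5 i) (ix5 j) = 0
  · rw [h]
    simp
  · obtain ⟨h0, h1', h2'⟩ := wt_N ⟨r, hr⟩ i j h
    have hd0 : d0 ≠ 0 := by
      rintro rfl
      simp at hd
    have e1 : w1 i = c1 r + w1 j := by linarith
    have e2 : w2 i = c2 r + w2 j := by linarith
    have e0 : d0 ^ (w0 i) = d0 ^ (c0 r) * d0 ^ (w0 j) := by
      rcases h0 with h0 | h0
      · rw [← zpow_add₀ hd0]
        congr 1
        linarith
      · have hinv : d0⁻¹ = d0 := inv_eq_of_mul_eq_one_left hd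
        have h3 : d0 ^ (-c0 r) = d0 ^ (c0 r) := by rw [_root_.zpow_neg, ← _root_.inv_zpow, hinv]
        rw [← h3, ← zpow_add₀ hd0]
        congr 1
        linarith
    unfold tor chi
    rw [e0, e1, e2, zpow_add₀ h1, zpow_add₀ h2]
    ring

theorem tor_M (d0 a1 a2 : K) (hd : d0 * d0 = 1) (h1 : a1 ≠ 0) (h2 : a2 ≠ 0) (r : ℕ) (hr : r < 8)
    (i j : I5) :
    tor d0 a1 a2 i * MB2 K r i j = chi r d0 a1 a2 ^ 2 * MB2 K r i j * tor d0 a1 a2 j := by
  rw [MB2_entry]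
  by_cases h : tab3 mListB2 r (ix5 i) (ix5 j) = 0
  · rw [h]
    simp
  · obtain ⟨h0, h1', h2'⟩ := wt_M ⟨r, hr⟩ i j h
    have e0 : w0 i = w0 j := by linarith
    have e1 : w1 i = c1 r + c1 r + w1 j := by linarith
    have e2 : w2 i = c2 r + c2 r + w2 j := by linarith
    have e3 : (d0 ^ (c0 r)) ^ 2 = 1 := by
      rw [← zpow_natCast, ← _root_.zpow_mul, mul_comm, _root_.zpow_mul, zpow_natCast, sq, hd, _root_.one_zpow]
    unfold tor chi
    rw [e0, e1, e2, zpow_add₀ h1, zpow_add₀ h1, zpow_add₀ h2, zpow_add₀ h2]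
    linear_combination (-(a1 ^ c1 r) ^ 2 * (a2 ^ c2 r) ^ 2 * ((tab3 mListB2 r (ix5 i) (ix5 j) : ℤ) : K) *
      (d0 ^ w0 j * a1 ^ w1 j * a2 ^ w2 j)) * e3

/-- conjugation of a root element by the diagonal torus -/
theorem tor_conj (d0 a1 a2 : K) (hd : d0 * d0 = 1) (h1 : a1 ≠ 0) (h2 : a2 ≠ 0) (r : ℕ)
    (hr : r < 8) (s : K) :
    Matrix.diagonal (tor d0 a1 a2) * EB2mat K r s =
      EB2mat K r (chi r d0 a1 a2 * s) * Matrix.diagonal (tor d0 a1 a2) := by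
  ext i j
  rw [Matrix.diagonal_mul, Matrix.mul_diagonal]
  unfold EB2mat
  simp only [Matrix.add_apply, Matrix.smul_apply, smul_eq_mul]
  have hN := tor_N d0 a1 a2 hd h1 h2 r hr i j
  have hM := tor_M d0 a1 a2 hd h1 h2 r hr i j
  have h1' : tor d0 a1 a2 i * (1 : Matrix I5 I5 K) i j =
      (1 : Matrix I5 I5 K) i j * tor d0 a1 a2 j := by
    by_cases hij : i = j
    · subst hij
      rw [Matrix.one_apply_eq, mul_one, one_mul]
    · rw [Matrix.one_apply_ne hij, mul_zero, zero_mul]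
  linear_combination h1' + s * hN + s ^ 2 * hM

/-- the torus elements are invertible -/
theorem tor_mul_inv (d0 a1 a2 : K) (hd : d0 * d0 = 1) (h1 : a1 ≠ 0) (h2 : a2 ≠ 0) :
    Matrix.diagonal (tor d0 a1 a2) * Matrix.diagonal (tor d0 a1⁻¹ a2⁻¹) = 1 := by
  rw [Matrix.diagonal_mul_diagonal, ← Matrix.diagonal_one]
  congr 1
  ext i
  unfold tor
  have e : d0 ^ w0 i * a1 ^ w1 i * a2 ^ w2 i * (d0 ^ w0 i * a1⁻¹ ^ w1 i * a2⁻¹ ^ w2 i) =
      (d0 * d0) ^ w0 i * (a1 * a1⁻¹) ^ w1 i * (a2 * a2⁻¹) ^ w2 i := by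
    rw [mul_zpow, mul_zpow, mul_zpow]
    ring
  rw [e, hd, mul_inv_cancel₀ h1, mul_inv_cancel₀ h2, _root_.one_zpow, _root_.one_zpow,
    _root_.one_zpow, one_mul, one_mul]

/-- the torus elements are isometries -/
theorem tor_iso (d0 a1 a2 : K) (hd : d0 * d0 = 1) (h1 : a1 ≠ 0) (h2 : a2 ≠ 0)
    (v : I5 → K) :
    Cfsg.quadFormOdd 2 K (Matrix.diagonal (tor d0 a1 a2) *ᵥ v) = Cfsg.quadFormOdd 2 K v := by
  unfold Cfsg.quadFormOdd
  simp only [Matrix.mulVec_diagonal, Fin.sum_univ_two]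
  have t0 : tor d0 a1 a2 (Sum.inl ()) = d0 := by simp [tor, w0, w1, w2]
  have t1 : tor d0 a1 a2 (Sum.inr (Sum.inl 0)) = a1 := by simp [tor, w0, w1, w2]
  have t2 : tor d0 a1 a2 (Sum.inr (Sum.inl 1)) = a2 := by simp [tor, w0, w1, w2]
  have t3 : tor d0 a1 a2 (Sum.inr (Sum.inr 0)) = a1⁻¹ := by simp [tor, w0, w1, w2]
  have t4 : tor d0 a1 a2 (Sum.inr (Sum.inr 1)) = a2⁻¹ := by simp [tor, w0, w1, w2]
  rw [t0, t1, t2, t3, t4]
  have e1 : a1 * v (Sum.inr (Sum.inl 0)) * (a1⁻¹ * v (Sum.inr (Sum.inr 0))) =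
      v (Sum.inr (Sum.inl 0)) * v (Sum.inr (Sum.inr 0)) := by
    field_simp
  have e2 : a2 * v (Sum.inr (Sum.inl 1)) * (a2⁻¹ * v (Sum.inr (Sum.inr 1))) =
      v (Sum.inr (Sum.inl 1)) * v (Sum.inr (Sum.inr 1)) := by
    field_simp
  rw [e1, e2]
  linear_combination (v (Sum.inl ())) ^ 2 * hd

end field

/-- a root element conjugated to a different parameter by an isometry is in `Ω` -/
theorem mem_omega_of_conj (hU : PkgUnitB2.{u}) (hI : PkgIsoB2.{u}) (K : Type u) [Field K]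
    (r : ℕ) (hr : r < Cfsg.Lie.chevB2.nroots) (hr8 : r < 8)
    (D Dinv : Matrix I5 I5 K) (χ : K) (hχ1 : χ ≠ 1) (hD : D * Dinv = 1)
    (hiso : ∀ v, Cfsg.quadFormOdd 2 K (D *ᵥ v) = Cfsg.quadFormOdd 2 K v)
    (hconj : ∀ s, D * EB2mat K r s = EB2mat K r (χ * s) * D) (t : K) :
    EB2 K ⟨r, hr⟩ t ∈ Cfsg.Geo.omegaGL (Cfsg.quadFormOdd 2 K) := by
  classical
  have hχ : χ - 1 ≠ 0 := sub_ne_zero.mpr hχ1
  let d : GL I5 K := ⟨D, Dinv, hD, mul_eq_one_comm.mp hD⟩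
  have hE : ∀ x, ((EB2 K ⟨r, hr⟩ x : GL I5 K) : Matrix I5 I5 K) = EB2mat K r x := by
    intro x
    unfold EB2
    rw [dif_pos (hU K r x hr8)]
    exact (hU K r x hr8).unit_spec
  have hdmem : d ∈ Cfsg.isometryGroup K (Cfsg.quadFormOdd 2 K) := fun u _ => hiso u
  have hemem : ∀ x, EB2 K ⟨r, hr⟩ x ∈ Cfsg.isometryGroup K (Cfsg.quadFormOdd 2 K) := by
    intro x u _
    have := hI K r x hr8 u
    rw [← hE x] at this
    exact this
  have hcomm : EB2 K ⟨r, hr⟩ t =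
      d * EB2 K ⟨r, hr⟩ (t / (χ - 1)) * d⁻¹ * (EB2 K ⟨r, hr⟩ (t / (χ - 1)))⁻¹ := by
    rw [eq_mul_inv_iff_mul_eq, eq_mul_inv_iff_mul_eq]
    apply Units.ext
    rw [Units.val_mul, Units.val_mul, Units.val_mul, hE, hE]
    change EB2mat K r t * EB2mat K r (t / (χ - 1)) * D = D * EB2mat K r (t / (χ - 1))
    rw [EB2mat_add K r hr8, hconj]
    congr 2
    field_simp
    ring
  unfold Cfsg.Geo.omegaGL
  rw [Subgroup.mem_map]
  refine ⟨⁅(⟨d, hdmem⟩ : Cfsg.isometryGroup K (Cfsg.quadFormOdd 2 K)),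
    (⟨EB2 K ⟨r, hr⟩ (t / (χ - 1)), hemem _⟩ : Cfsg.isometryGroup K (Cfsg.quadFormOdd 2 K))⁆,
    ?_, ?_⟩
  · exact Subgroup.commutator_mem_commutator (Subgroup.mem_top _) (Subgroup.mem_top _)
  · rw [hcomm, commutatorElement_def]
    rfl

/-- [IN-B2] -/
theorem pkgInB2_of (hU : PkgUnitB2.{u}) (hI : PkgIsoB2.{u}) : PkgInB2.{u} := by
  intro K _ ⟨a, ha0, ha1⟩ r t
  obtain ⟨r, hr⟩ := r
  have hr8 : r < 8 := hr
  have h11 : (1 : K) * 1 = 1 := one_mul 1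
  rcases c_cases ⟨r, hr8⟩ with h | h
  · refine mem_omega_of_conj hU hI K r hr hr8 (Matrix.diagonal (tor 1 a 1))
      (Matrix.diagonal (tor 1 a⁻¹ 1⁻¹)) (chi r 1 a 1) ?_ (tor_mul_inv 1 a 1 h11 ha0 one_ne_zero)
      (tor_iso 1 a 1 h11 ha0 one_ne_zero) (tor_conj 1 a 1 h11 ha0 one_ne_zero r hr8) t
    unfold chi
    rw [_root_.one_zpow, _root_.one_zpow, one_mul, mul_one]
    rcases h with h | h
    · have h' : c1 r = 1 := h
      rw [h', zpow_one]
      exact ha1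
    · have h' : c1 r = -1 := h
      rw [h', _root_.zpow_neg_one]
      exact fun h => ha1 (inv_eq_one.mp h)
  · refine mem_omega_of_conj hU hI K r hr hr8 (Matrix.diagonal (tor 1 1 a))
      (Matrix.diagonal (tor 1 1⁻¹ a⁻¹)) (chi r 1 1 a) ?_ (tor_mul_inv 1 1 a h11 one_ne_zero ha0)
      (tor_iso 1 1 a h11 one_ne_zero ha0) (tor_conj 1 1 a h11 one_ne_zero ha0 r hr8) t
    unfold chi
    rw [_root_.one_zpow, _root_.one_zpow, one_mul, one_mul]
    rcases h with h | h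
    · have h' : c2 r = 1 := h
      rw [h', zpow_one]
      exact ha1
    · have h' : c2 r = -1 := h
      rw [h', _root_.zpow_neg_one]
      exact fun h => ha1 (inv_eq_one.mp h)

end Cfsg.Agent.Lib.Helper66.CHO
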